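/-
Piece NUM of helper83's farm S2152 (by helper8).
-/
import Mathlib
import Cfsg.Agent.Lib.Helper83.MinSU.Defs

set_option autoImplicit false

namespace Cfsg.Agent.Lib.Helper8.MinSU

open Matrix Cfsg.Agent.Lib.Helper13 Cfsg.Agent.Lib.Helper5 Cfsg.Agent.Lib.Helper57.RootSU
  Cfsg.Agent.Lib.Helper83.MinSU

variable {q n : ℕ}

/-- [NUM] -/
theorem NU_mul (hq : 2 ≤ q) (he : Even n) :
    NU q n * (q ^ 2 - 1) = (q ^ n - 1) * (q ^ (n - 1) + 1) := by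
  unfold NU
  apply Nat.div_mul_cancel
  obtain ⟨k, rfl⟩ := he
  have h1 : q ^ 2 - 1 ∣ q ^ (k + k) - 1 := by
    rw [← two_mul, pow_mul]
    have := Nat.sub_dvd_pow_sub_pow (q ^ 2) 1 k
    rwa [one_pow] at this
  exact Dvd.dvd.mul_right h1 _

/-- [NUM] -/
theorem NU_succ (hq : 2 ≤ q) (he : Even n) (hn : 2 ≤ n) :
    NU q (n + 2) = 1 + q ^ 2 * NU q n + q ^ (2 * n + 1) := by
  have h1 := NU_mul hq he
  have h2 := NU_mul hq (n := n + 2) (by simpa [Nat.even_add] using he)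
  have hpos : 0 < q ^ 2 - 1 := by
    have : 4 ≤ q ^ 2 := by nlinarith
    omega
  apply Nat.eq_of_mul_eq_mul_right hpos
  rw [h2, add_mul, add_mul, mul_assoc, h1]
  obtain ⟨m, rfl⟩ : ∃ m, n = m + 1 := ⟨n - 1, by omega⟩
  have e1 : m + 1 + 2 - 1 = m + 2 := by omega
  have e2 : m + 1 - 1 = m := by omega
  rw [e1, e2]
  have hx : 1 ≤ q ^ m := Nat.one_le_pow _ _ (by omega)
  have hq2 : 1 ≤ q ^ 2 := Nat.one_le_pow _ _ (by omega)
  have hA : 1 ≤ q ^ (m + 1 + 2) := Nat.one_le_pow _ _ (by omega)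
  have hB : 1 ≤ q ^ (m + 1) := Nat.one_le_pow _ _ (by omega)
  zify [hA, hB, hq2]
  ring

end Cfsg.Agent.Lib.Helper8.MinSU
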