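/-
Piece U1i of helper83's farm S2152 (by helper8).
-/
import Mathlib
import Cfsg.Agent.Lib.Helper83.MinSU.Defs

set_option autoImplicit false

namespace Cfsg.Agent.Lib.Helper8.MinSU

open Matrix Cfsg.Agent.Lib.Helper13 Cfsg.Agent.Lib.Helper5 Cfsg.Agent.Lib.Helper57.RootSU
  Cfsg.Agent.Lib.Helper83.MinSU

variable {F : Type*} [Field F] [Fintype F] {q m n : ℕ}

lemma iso_smul {x : Fin n → F} (hx : Cfsg.hermForm n F q x x = 0) (a : F) :
    Cfsg.hermForm n F q (a • x) (a • x) = 0 := by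
  rw [hermForm_smul_left, hermForm_smul_right, hx]; simp

lemma skew_norm_mul (hF : Fintype.card F = q ^ 2) {c : F} (hc : c + c ^ q = 0) (a : F) :
    a * a ^ q * c + (a * a ^ q * c) ^ q = 0 := by
  simp only [mul_pow, pow_q_pow_q hF]
  linear_combination (a * a ^ q) * hc

lemma ut_smul (hF : Fintype.card F = q ^ 2) {x : Fin n → F} (hx : Cfsg.hermForm n F q x x = 0)
    (a : F) {c : F} (hc : c + c ^ q = 0) : ut hF (a • x) c = ut hF x (a * a ^ q * c) := by
  apply SU_ext_mulVec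
  intro y
  rw [ut_mulVec hF (iso_smul hx a) hc, ut_mulVec hF hx (skew_norm_mul hF hc a), hermForm_smul_right]
  module

/-- [U1i] `RS` is invariant under `K` and under scalars -/
theorem rs_inv (hF : Fintype.card F = q ^ 2) (K : Subgroup (Cfsg.SU n F q)) (x : Fin n → F)
    (hx : x ∈ RS hF K) : (∀ k ∈ K, k.1.1 *ᵥ x ∈ RS hF K) ∧ ∀ a : F, a • x ∈ RS hF K := by
  obtain ⟨hx0, hxK⟩ := hx
  constructor
  · intro k hk
    refine ⟨by rw [SU_preserves, hx0], fun c hc => ?_⟩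
    rw [← ut_conj hF k hx0 hc]
    exact K.mul_mem (K.mul_mem hk (hxK c hc)) (K.inv_mem hk)
  · intro a
    refine ⟨iso_smul hx0 a, fun c hc => ?_⟩
    rw [ut_smul hF hx0 a hc]
    exact hxK _ (skew_norm_mul hF hc a)

end Cfsg.Agent.Lib.Helper8.MinSU
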