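/-
Piece U1a of helper83's farm S2152 (by helper8).
-/
import Mathlib
import Cfsg.Agent.Lib.Helper8.MinSU.U1i

set_option autoImplicit false

namespace Cfsg.Agent.Lib.Helper8.MinSU

open Matrix Cfsg.Agent.Lib.Helper13 Cfsg.Agent.Lib.Helper5 Cfsg.Agent.Lib.Helper57.RootSU
  Cfsg.Agent.Lib.Helper83.MinSU

variable {F : Type*} [Field F] [Fintype F] {q m n : ℕ}

/-- [U1a] -/
theorem rs_hyp (hF : Fintype.card F = q ^ 2) (K : Subgroup (Cfsg.SU n F q)) (u v : Fin n → F)
    (hu : u ∈ RS hF K) (hv : v ∈ RS hF K) (huv : Cfsg.hermForm n F q u v ≠ 0) (a b : F)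
    (h0 : Cfsg.hermForm n F q (a • u + b • v) (a • u + b • v) = 0) :
    a • u + b • v ∈ RS hF K := by
  by_cases ha : a = 0
  · rw [ha, zero_smul, zero_add]
    exact (rs_inv hF K v hv).2 b
  have hvu : Cfsg.hermForm n F q v u ≠ 0 := by
    rw [← hermForm_swap hF]
    exact pow_ne_zero _ huv
  have haq : a ^ q ≠ 0 := pow_ne_zero _ ha
  set s := Cfsg.hermForm n F q u v with hs
  set s' := Cfsg.hermForm n F q v u with hs'
  have hss' : s ^ q = s' := hermForm_swap hF u v
  -- the isotropy condition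
  have hiso : a * b ^ q * s + b * a ^ q * s' = 0 := by
    simp only [hermForm_add_left, hermForm_add_right hF, hermForm_smul_left, hermForm_smul_right,
      hu.1, hv.1] at h0
    linear_combination h0
  set c' := b / a / s with hc'
  have hc's : c' + c' ^ q = 0 := by
    rw [hc', div_pow, div_pow, hss']
    field_simp
    linear_combination hiso
  have e1 : (ut hF v c').1.1 *ᵥ u = u + (b / a) • v := by
    rw [ut_mulVec hF hv.1 hc's, hc', ← hs]
    congr 2
    field_simp
  have h1 : u + (b / a) • v ∈ RS hF K := by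
    rw [← e1]
    exact (rs_inv hF K u hu).1 _ (hv.2 c' hc's)
  have e2 : a • u + b • v = a • (u + (b / a) • v) := by
    rw [smul_add, smul_smul, mul_div_cancel₀ _ ha]
  rw [e2]
  exact (rs_inv hF K _ h1).2 a

end Cfsg.Agent.Lib.Helper8.MinSU
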