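/-
Piece K0 of helper83's farm S2152 (by helper8).
-/
import Mathlib
import Cfsg.Agent.Lib.Helper8.MinSU.U1a

set_option autoImplicit false

namespace Cfsg.Agent.Lib.Helper8.MinSU

open Matrix Cfsg.Agent.Lib.Helper13 Cfsg.Agent.Lib.Helper5 Cfsg.Agent.Lib.Helper57.RootSU
  Cfsg.Agent.Lib.Helper83.MinSU

variable {F : Type*} [Field F] [Fintype F] {q m n : ℕ}

/-- [K0] -/
theorem scal_Fq (hF : Fintype.card F = q ^ 2) (K : Subgroup (Cfsg.SU n F q)) (x u : Fin n → F)
    (hx : x ∈ RS hF K) (hu : u ∈ RS hF K) (hxu : Cfsg.hermForm n F q x u ≠ 0)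
    (lam : F) (hl : lam ^ q = lam) (h0 : lam ≠ 0) :
    ∃ k ∈ K, k.1.1 *ᵥ x = lam • x ∧
      ∀ z, Cfsg.hermForm n F q z x = 0 → Cfsg.hermForm n F q z u = 0 → k.1.1 *ᵥ z = z := by
  obtain ⟨e, he0, he⟩ := exists_skew_q hF
  have heq : e ^ q = -e := by linear_combination he
  set s := Cfsg.hermForm n F q x u with hs
  set s' := Cfsg.hermForm n F q u x with hs'
  have hss' : s ^ q = s' := hermForm_swap hF x u
  have hs's : s' ^ q = s := hermForm_swap hF u x
  have hs'0 : s' ≠ 0 := by rw [← hss']; exact pow_ne_zero _ hxu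
  set b := e / s' with hb
  have hbq : b ^ q = -e / s := by rw [hb, div_pow, heq, hs's]
  have hl1 : (lam - 1) ^ q = lam - 1 := by rw [sub_pow_q hF, hl, one_pow]
  -- first move
  set c1 := b / s with hc1
  have hc1s : c1 + c1 ^ q = 0 := by
    rw [hc1, div_pow, hbq, hss', hb]
    field_simp
    ring
  have m1 : (ut hF u c1).1.1 *ᵥ x = x + b • u := by
    rw [ut_mulVec hF hu.1 hc1s, ← hs, hc1]
    congr 2
    field_simp
  -- second move
  have hv'iso : Cfsg.hermForm n F q ((lam - 1) • x + (-b) • u) ((lam - 1) • x + (-b) • u) = 0 := by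
    simp only [hermForm_add_left, hermForm_add_right hF, hermForm_smul_left, hermForm_smul_right,
      hx.1, hu.1, ← hs, ← hs', hl1, neg_pow_q hF, hbq]
    rw [hb]
    field_simp
    ring
  have hv' := rs_hyp hF K x u hx hu hxu (lam - 1) (-b) hv'iso
  set v' := (lam - 1) • x + (-b) • u with hv'def
  have hyv : Cfsg.hermForm n F q (x + b • u) v' = lam * e := by
    rw [hv'def]
    simp only [hermForm_add_left, hermForm_add_right hF, hermForm_smul_left, hermForm_smul_right,
      hx.1, hu.1, ← hs, ← hs', hl1, neg_pow_q hF, hbq]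
    rw [hb]
    field_simp
    ring
  set c2 := 1 / (lam * e) with hc2
  have hc2s : c2 + c2 ^ q = 0 := by
    rw [hc2, div_pow, one_pow, mul_pow, hl, heq]
    field_simp
    ring
  have m2 : (ut hF v' c2).1.1 *ᵥ (x + b • u) = lam • x := by
    rw [ut_mulVec hF hv'.1 hc2s, hyv, hc2, one_div, inv_mul_cancel₀ (mul_ne_zero h0 he0), one_smul,
      hv'def]
    module
  refine ⟨ut hF v' c2 * ut hF u c1, K.mul_mem (hv'.2 c2 hc2s) (hu.2 c1 hc1s), ?_, ?_⟩
  · rw [SU_mul_mulVec, m1, m2]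
  · intro z hzx hzu
    rw [SU_mul_mulVec, ut_mulVec hF hu.1 hc1s, hzu, mul_zero, zero_smul, add_zero,
      ut_mulVec hF hv'.1 hc2s]
    have : Cfsg.hermForm n F q z v' = 0 := by
      rw [hv'def, hermForm_add_right hF, hermForm_smul_right, hermForm_smul_right, hzx, hzu]
      ring
    rw [this, mul_zero, zero_smul, add_zero]

end Cfsg.Agent.Lib.Helper8.MinSU
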