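/-
Piece U1d of helper83's farm S2152 (by helper8).
-/
import Mathlib
import Cfsg.Agent.Lib.Helper8.MinSU.U1a

set_option autoImplicit false
set_option linter.unusedSimpArgs false

namespace Cfsg.Agent.Lib.Helper8.MinSU

open Matrix Cfsg.Agent.Lib.Helper13 Cfsg.Agent.Lib.Helper5 Cfsg.Agent.Lib.Helper57.RootSU
  Cfsg.Agent.Lib.Helper83.MinSU

variable {F : Type*} [Field F] [Fintype F] {q m n : ℕ}

/-- [U1d] -/
theorem rs_mix (hF : Fintype.card F = q ^ 2) (K : Subgroup (Cfsg.SU n F q))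
    (x1 u x2 y2 : Fin n → F) (mu : F) (hmu : mu ^ q ≠ mu)
    (hx1 : Cfsg.hermForm n F q x1 x1 = 0) (hx2 : Cfsg.hermForm n F q x2 x2 = 0)
    (h11 : Cfsg.hermForm n F q x1 x2 = 0) (h12 : Cfsg.hermForm n F q x1 y2 = 0)
    (h21 : Cfsg.hermForm n F q u x2 = 0) (h22 : Cfsg.hermForm n F q u y2 = 0)
    (hxu : Cfsg.hermForm n F q x1 u ≠ 0) (hxy : Cfsg.hermForm n F q x2 y2 ≠ 0)
    (hu : u ∈ RS hF K) (hy : y2 ∈ RS hF K) (hp : x1 + x2 ∈ RS hF K)
    (hp' : mu • x1 + x2 ∈ RS hF K) :
    ∃ a b c d : F, Cfsg.hermForm n F q (a • x1 + b • u) (a • x1 + b • u) ≠ 0 ∧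
      (a • x1 + b • u) + (c • x2 + d • y2) ∈ RS hF K := by
  obtain ⟨s, hs0, hs⟩ := exists_skew_q hF
  have hsq : s ^ q = -s := by linear_combination hs
  have g11 := hermForm_eq_zero_comm hF h11
  have g12 := hermForm_eq_zero_comm hF h12
  have g21 := hermForm_eq_zero_comm hF h21
  have g22 := hermForm_eq_zero_comm hF h22
  set A := Cfsg.hermForm n F q x1 u with hA
  set A' := Cfsg.hermForm n F q u x1 with hA'
  set B := Cfsg.hermForm n F q x2 y2 with hB
  set B' := Cfsg.hermForm n F q y2 x2 with hB'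
  have hAA' : A ^ q = A' := hermForm_swap hF x1 u
  have hA'A : A' ^ q = A := hermForm_swap hF u x1
  have hBB' : B ^ q = B' := hermForm_swap hF x2 y2
  have hB'B : B' ^ q = B := hermForm_swap hF y2 x2
  have hA'0 : A' ≠ 0 := by rw [← hAA']; exact pow_ne_zero _ hxu
  have hB'0 : B' ≠ 0 := by rw [← hBB']; exact pow_ne_zero _ hxy
  set ν := s / B' with hν
  set ν' := s / A' with hν'
  have hνq : ν ^ q = -s / B := by rw [hν, div_pow, hsq, hB'B]
  have hν'q : ν' ^ q = -s / A := by rw [hν', div_pow, hsq, hA'A]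
  have hθq : (1 - mu) ^ q = 1 - mu ^ q := by rw [sub_pow_q hF, one_pow]
  -- `p2`
  have i2 : Cfsg.hermForm n F q ((1 : F) • (mu • x1 + x2) + ν • y2)
      ((1 : F) • (mu • x1 + x2) + ν • y2) = 0 := by
    simp only [hermForm_add_left, hermForm_add_right hF, hermForm_smul_left, hermForm_smul_right,
      hx1, hx2, h11, h12, g11, g12, hy.1, ← hB, ← hB', hνq, one_pow]
    rw [hν]
    field_simp
    ring
  have n2 : Cfsg.hermForm n F q (mu • x1 + x2) y2 ≠ 0 := by
    rw [hermForm_add_left, hermForm_smul_left, h12, mul_zero, zero_add]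
    exact hxy
  have p2 := rs_hyp hF K _ _ hp' hy n2 1 ν i2
  -- `p4`
  have i4 : Cfsg.hermForm n F q ((1 : F) • (x1 + x2) + ν' • u)
      ((1 : F) • (x1 + x2) + ν' • u) = 0 := by
    simp only [hermForm_add_left, hermForm_add_right hF, hermForm_smul_left, hermForm_smul_right,
      hx1, hx2, h11, g11, h21, g21, hu.1, ← hA, ← hA', hν'q, one_pow]
    rw [hν']
    field_simp
    ring
  have n4 : Cfsg.hermForm n F q (x1 + x2) u ≠ 0 := by
    rw [hermForm_add_left, g21, add_zero]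
    exact hxu
  have p4 := rs_hyp hF K _ _ hp hu n4 1 ν' i4
  set P2 := (1 : F) • (mu • x1 + x2) + ν • y2 with hP2
  set P4 := (1 : F) • (x1 + x2) + ν' • u with hP4
  have h24 : Cfsg.hermForm n F q P2 P4 = s * (1 - mu) := by
    rw [hP2, hP4]
    simp only [hermForm_add_left, hermForm_add_right hF, hermForm_smul_left, hermForm_smul_right,
      hx1, hx2, h11, h12, g11, g12, h21, g21, h22, g22, ← hA, ← hA', ← hB, ← hB', hν'q, one_pow]
    rw [hν]
    field_simp
    ring
  have h42 : Cfsg.hermForm n F q P4 P2 = -s * (1 - mu ^ q) := by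
    rw [← hermForm_swap hF, h24, mul_pow, hsq, hθq]
  have hmu1 : 1 - mu ≠ 0 := by
    intro h
    apply hmu
    have : mu = 1 := by linear_combination -h
    rw [this, one_pow]
  have n24 : Cfsg.hermForm n F q P2 P4 ≠ 0 := by
    rw [h24]; exact mul_ne_zero hs0 hmu1
  have i6 : Cfsg.hermForm n F q ((1 : F) • P2 + (1 - mu) • P4) ((1 : F) • P2 + (1 - mu) • P4) = 0 := by
    simp only [hermForm_add_left, hermForm_add_right hF, hermForm_smul_left, hermForm_smul_right,
      p2.1, p4.1, h24, h42, hθq, one_pow]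
    ring
  have p6 := rs_hyp hF K _ _ p2 p4 n24 1 (1 - mu) i6
  refine ⟨1, (1 - mu) * ν', 2 - mu, ν, ?_, ?_⟩
  · simp only [hermForm_add_left, hermForm_add_right hF, hermForm_smul_left, hermForm_smul_right,
      hx1, hu.1, ← hA, ← hA', mul_pow, hθq, hν'q, one_pow]
    rw [hν']
    intro h
    apply hmu
    have h' : (A' * A) * (s * (mu ^ q - mu)) = 0 := by
      field_simp at h
      linear_combination h
    have h'' := (mul_eq_zero.1 h').resolve_left (mul_ne_zero hA'0 hxu)
    have := (mul_eq_zero.1 h'').resolve_left hs0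
    exact sub_eq_zero.1 this
  · have e : ((1 : F) • x1 + ((1 - mu) * ν') • u) + ((2 - mu) • x2 + ν • y2) =
        (1 : F) • P2 + (1 - mu) • P4 := by
      rw [hP2, hP4]
      module
    rw [e]
    exact p6

end Cfsg.Agent.Lib.Helper8.MinSU
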