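/-
Piece U1t of helper83's farm S2152 (by helper8).
-/
import Mathlib
import Cfsg.Agent.Lib.Helper8.MinSU.U1i

set_option autoImplicit false

namespace Cfsg.Agent.Lib.Helper8.MinSU

open Matrix Cfsg.Agent.Lib.Helper13 Cfsg.Agent.Lib.Helper5 Cfsg.Agent.Lib.Helper57.RootSU
  Cfsg.Agent.Lib.Helper83.MinSU

variable {F : Type*} [Field F] [Fintype F] {q m n : ℕ}

lemma skew_mul_Fq {a c : F} (ha : a ^ q = a) (hc : c + c ^ q = 0) : a * c + (a * c) ^ q = 0 := by
  rw [mul_pow, ha]
  linear_combination a * hc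

/-- [U1t] three points of a totally isotropic line -/
theorem rs_three (hF : Fintype.card F = q ^ 2) (K : Subgroup (Cfsg.SU n F q)) (z x : Fin n → F)
    (hz : Cfsg.hermForm n F q z z = 0) (hzx : Cfsg.hermForm n F q z x = 0)
    (lam : F) (hl : lam ^ q = lam) (h0 : lam ≠ 0) (h1 : lam ≠ 1)
    (hx : x ∈ RS hF K) (h2 : z + x ∈ RS hF K) (h3 : z + lam • x ∈ RS hF K) :
    z ∈ RS hF K := by
  refine ⟨hz, fun c hc => ?_⟩
  have hxz : Cfsg.hermForm n F q x z = 0 := by rw [← hermForm_swap hF, hzx, zero_pow]; 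
                                               have := two_le_of_card_sq hF; omega
  have hne : 1 - lam ≠ 0 := sub_ne_zero.2 (Ne.symm h1)
  have hden : (1 - lam) ^ q = 1 - lam := by rw [sub_pow_q hF, one_pow, hl]
  have hα : (-lam / (1 - lam)) ^ q = -lam / (1 - lam) := by
    rw [div_pow, neg_pow_q hF, hl, hden]
  have hβ : (1 / (1 - lam)) ^ q = 1 / (1 - lam) := by
    rw [div_pow, one_pow, hden]
  have sα := skew_mul_Fq hα hc
  have sβ := skew_mul_Fq hβ hc
  have sγ := skew_mul_Fq hl hc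
  have key : ut hF z c = ut hF (z + x) (-lam / (1 - lam) * c) *
      ut hF (z + lam • x) (1 / (1 - lam) * c) * ut hF x (lam * c) := by
    apply SU_ext_mulVec
    intro y
    rw [SU_mul_mulVec, SU_mul_mulVec, ut_mulVec hF hz hc, ut_mulVec hF hx.1 sγ,
      ut_mulVec hF h3.1 sβ, ut_mulVec hF h2.1 sα]
    simp only [hermForm_add_left, hermForm_add_right hF, hermForm_smul_left, hermForm_smul_right,
      hz, hx.1, hzx, hxz, hl]
    ext i
    simp only [Pi.add_apply, Pi.smul_apply, smul_eq_mul]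
    field_simp
    ring
  rw [key]
  exact K.mul_mem (K.mul_mem (h2.2 _ sα) (h3.2 _ sβ)) (hx.2 _ sγ)

end Cfsg.Agent.Lib.Helper8.MinSU
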